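import Cfsg.Agent.H450.S8.Core
import Cfsg.Agent.H511.Ore.Deg
import Cfsg.Agent.H664.Eight.Base

/-!
# S4908: `Num` from one self-centralizing prime and a lower bound of the degrees (helper742)
-/

set_option autoImplicit false

namespace Cfsg.Agent.H742.S8

open Cfsg Subgroup

universe u v

/-- the residues of the data are those of `okDeg` -/
def resOK (c : H651.Two.CD) : Bool :=
  c.wl.all fun rw => [0, 1, c.r - 1, c.e, c.r - c.e].contains rw.1

/-- **`Num`** from the data of one prime -/
theorem num_of {G : Type u} [Group G] [Finite G] [IsSimpleGroup G] (hna : ¬ IsMulCommutative G) {N : ℕ}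
    (hN : Nat.card G = N) {m : ℕ} (hm : H511.Ore.MinDeg G m) {c : H651.Two.CD} (hc : c.Has G) (hok : c.ok N = true)
    (hr : resOK c = true) : H450.S8.Num (charDegrees G) N (H450.S8.okDeg m [(c.r, c.e)]) where
  pos := hN ▸ Nat.card_pos
  dvd := by
    rintro d ⟨χ, rfl⟩
    exact hN ▸ H511.Ore.charDegree_dvd χ
  ok := by
    rintro d ⟨χ, rfl⟩
    rw [H450.S8.okDeg, Bool.and_eq_true]
    refine ⟨?_, ?_⟩
    · rw [Bool.or_eq_true, beq_iff_eq, decide_eq_true_eq]
      by_cases h : (χ : G → ℂ) = 1
      · left
        rw [h]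
        simp [charDegree]
      · exact Or.inr (hm χ h)
    · rw [List.all_eq_true]
      intro x hx
      rw [List.mem_singleton] at hx
      subst hx
      have h := H511.Ore.res_of_has hna hN hc hok χ
      rw [List.any_eq_true] at h
      obtain ⟨rw', h1, h2⟩ := h
      have h3 := List.all_eq_true.1 hr _ h1
      rw [Nat.eq_of_beq_eq_true h2]
      exact h3

/-- transport along an isomorphism -/
theorem num_congr {G : Type u} {X : Type v} [Group G] [Group X] (e : X ≃* G) {N : ℕ} {P : ℕ → Bool}
    (h : H450.S8.Num (charDegrees G) N P) : H450.S8.Num (charDegrees X) N P where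
  pos := h.pos
  dvd hd := h.dvd (H664.Eight.charDegrees_subset e.symm hd)
  ok hd := h.ok (H664.Eight.charDegrees_subset e.symm hd)

end Cfsg.Agent.H742.S8
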